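import Cfsg.Agent.Lib.H2.Residual
import Mathlib.GroupTheory.SpecificGroups.Cyclic
import Mathlib.GroupTheory.IndexNormal
import Mathlib.Tactic

set_option autoImplicit false

/-! Fusion of involutions in groups where the centralizer of an involution has a cyclic
subgroup of index at most two. -/

namespace H2.Rec

open Subgroup Cfsg

variable {X : Type*} [Group X] [Finite X]

theorem unique_inv {K : Subgroup X} (hK : IsCyclic K) {t z : X} (ht : t ∈ K) (hz : z ∈ K)
    (ht2 : t * t = 1) (hz2 : z * z = 1) (ht1 : t ≠ 1) (hz1 : z ≠ 1) : z = t := by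
  classical
  have := Fintype.ofFinite K
  by_contra hne
  have h1 := IsCyclic.card_pow_eq_one_le (α := K) (n := 2) (by norm_num)
  have h2 : ({1, ⟨t, ht⟩, ⟨z, hz⟩} : Finset K) ⊆ Finset.univ.filter (fun a : K => a ^ 2 = 1) := by
    intro a ha
    simp only [Finset.mem_insert, Finset.mem_singleton] at ha
    rw [Finset.mem_filter]
    refine ⟨Finset.mem_univ _, ?_⟩
    rcases ha with rfl | rfl | rfl
    · exact one_pow 2
    · exact Subtype.ext (by simpa [sq] using ht2)
    · exact Subtype.ext (by simpa [sq] using hz2)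
  have h3 := Finset.card_le_card h2
  have h4 : ({1, ⟨t, ht⟩, ⟨z, hz⟩} : Finset K).card = 3 := by
    rw [Finset.card_eq_three]
    refine ⟨1, ⟨t, ht⟩, ⟨z, hz⟩, ?_, ?_, ?_, rfl⟩
    · intro h; exact ht1 (congrArg Subtype.val h).symm
    · intro h; exact hz1 (congrArg Subtype.val h).symm
    · intro h; exact hne (congrArg Subtype.val h).symm
  omega

/-- if `X = O²(X)` and `M` meets the Sylow subgroup `P` in a subgroup of index two, some element of
`P ∩ M` is conjugate to an element of `P` outside `M` -/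
theorem exists_split (P : Sylow 2 X) (hres : pResidual 2 X = ⊤) (M : Subgroup X)
    (hM : M.relIndex (P : Subgroup X) = 2) :
    ∃ x ∈ (P : Subgroup X), x ∈ M ∧ ∃ y ∈ (P : Subgroup X), y ∉ M ∧ ∃ g : X, g * x * g⁻¹ = y := by
  by_contra hcon
  push Not at hcon
  have key : ∀ x ∈ (P : Subgroup X), ∀ y ∈ (P : Subgroup X), ∀ g : X, g * x * g⁻¹ = y → (x ∈ M ↔ y ∈ M) := by
    intro x hx y hy g hg
    constructor
    · intro h1
      by_contra h2
      exact hcon x hx h1 y hy h2 g hg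
    · intro h1
      by_contra h2
      refine hcon y hy h1 x hx h2 g⁻¹ ?_
      rw [← hg]; group
  have h1 := H2.Residual.focal_eq_of_residual_eq_top P hres
  have h2 : (P : Subgroup X).focalSubgroup ≤ M := by
    rw [focalSubgroup_def, closure_le]
    rintro g ⟨hg, x, hx, u, hgu⟩
    have hy : u * x⁻¹ * u⁻¹ ∈ (P : Subgroup X) := by
      have h3 : u * x⁻¹ * u⁻¹ = x⁻¹ * g := by rw [hgu, commutatorElement_def]; group
      rw [h3]
      exact mul_mem (inv_mem hx) hg
    have h3 : g = x * (u * x⁻¹ * u⁻¹) := by rw [hgu, commutatorElement_def]; group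
    have h4 := key x⁻¹ (inv_mem hx) _ hy u rfl
    rw [inv_mem_iff] at h4
    change g ∈ M
    rw [h3]
    have h5 := Subgroup.mul_mem_iff_of_index_two (H := M.subgroupOf (P : Subgroup X)) hM
      (a := ⟨x, hx⟩) (b := ⟨_, hy⟩)
    rw [mem_subgroupOf, mem_subgroupOf, mem_subgroupOf] at h5
    exact h5.2 h4
  rw [h1] at h2
  rw [relIndex_eq_one.2 h2] at hM
  omega

/-- the situation -/
structure Cyc (t : X) (K : Subgroup X) : Prop where
  tt : t * t = 1
  t1 : t ≠ 1
  cyc : IsCyclic K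
  tK : t ∈ K
  KH : K ≤ centralizer ({t} : Set X)
  idx : K.relIndex (centralizer ({t} : Set X)) ∣ 2
  odd : ¬ 2 ∣ (centralizer ({t} : Set X)).index
  res : pResidual 2 X = ⊤

variable {t : X} {K : Subgroup X}

theorem Cyc.norm (h : Cyc t K) {g x : X} (hg : g ∈ centralizer ({t} : Set X)) (hx : x ∈ K) :
    g * x * g⁻¹ ∈ K := by
  have h1 : (K.subgroupOf (centralizer ({t} : Set X))).Normal := by
    rcases (Nat.dvd_prime Nat.prime_two).1 h.idx with h2 | h2
    · have h3 : K.subgroupOf (centralizer ({t} : Set X)) = ⊤ := index_eq_one.1 h2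
      rw [h3]; infer_instance
    · exact Subgroup.normal_of_index_eq_two h2
  exact h1.conj_mem ⟨x, h.KH hx⟩ hx ⟨g, hg⟩

theorem Cyc.sq_mem (h : Cyc t K) {g : X} (hg : g ∈ centralizer ({t} : Set X)) : g * g ∈ K := by
  rcases (Nat.dvd_prime Nat.prime_two).1 h.idx with h2 | h2
  · have h3 := relIndex_eq_one.1 h2 hg
    exact K.mul_mem h3 h3
  · have h5 := Subgroup.mul_self_mem_of_index_two (H := K.subgroupOf (centralizer ({t} : Set X))) h2 ⟨g, hg⟩
    exact h5

theorem Cyc.exists_sylow (h : Cyc t K) : ∃ P : Sylow 2 X, (P : Subgroup X) ≤ centralizer ({t} : Set X) := by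
  obtain ⟨Q⟩ : Nonempty (Sylow 2 (centralizer ({t} : Set X))) := inferInstance
  have h1 : IsPGroup 2 ((Q : Subgroup (centralizer ({t} : Set X))).map
      (centralizer ({t} : Set X)).subtype) := Q.2.map _
  have h2 : ¬ 2 ∣ ((Q : Subgroup (centralizer ({t} : Set X))).map
      (centralizer ({t} : Set X)).subtype).index := by
    rw [index_map_subtype]
    intro h3
    rcases (Nat.Prime.dvd_mul Nat.prime_two).1 h3 with h4 | h4
    · exact Q.not_dvd_index h4
    · exact h.odd h4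
  refine ⟨h1.toSylow h2, ?_⟩
  exact map_subtype_le _

theorem Cyc.pow_eq (h : Cyc t K) {z : X} (hz : z ∈ centralizer ({t} : Set X)) {m : ℕ} (hm : 2 ≤ m)
    (ho : orderOf z = 2 ^ m) : z ^ (2 ^ (m - 1)) = t := by
  obtain ⟨j, rfl⟩ := Nat.exists_eq_add_of_le hm
  have e1 : 2 + j - 1 = j + 1 := by omega
  rw [e1]
  apply unique_inv h.cyc h.tK _ h.tt _ h.t1
  · intro h1
    have h2 := orderOf_dvd_of_pow_eq_one h1
    rw [ho] at h2
    have h3 := Nat.le_of_dvd (by positivity) h2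
    have h4 : (2 : ℕ) ^ (j + 1) < 2 ^ (2 + j) := Nat.pow_lt_pow_right (by norm_num) (by omega)
    omega
  · have h1 : z ^ (2 ^ (j + 1)) = (z * z) ^ (2 ^ j) := by
      rw [← sq, ← pow_mul, pow_succ']
    rw [h1]
    exact K.pow_mem (h.sq_mem hz) _
  · rw [← pow_add, ← two_mul, ← pow_succ', show j + 1 + 1 = 2 + j by ring, ← ho, pow_orderOf_eq_one]

/-- fusion of involutions across a subgroup `M` normalised by `C(t)` -/
theorem Cyc.split (h : Cyc t K) (P : Sylow 2 X) (hP : (P : Subgroup X) ≤ centralizer ({t} : Set X))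
    (M : Subgroup X) (hMn : ∀ g ∈ centralizer ({t} : Set X), ∀ x ∈ M, g * x * g⁻¹ ∈ M)
    (hM : M.relIndex (P : Subgroup X) = 2) :
    ∃ x ∈ (P : Subgroup X), x ∈ M ∧ ∃ y ∈ (P : Subgroup X), y ∉ M ∧ x * x = 1 ∧ y * y = 1 ∧
      IsConj x y := by
  have hp : Fact (Nat.Prime 2) := ⟨Nat.prime_two⟩
  obtain ⟨x, hx, hxM, y, hy, hyM, g, hg⟩ := exists_split P h.res M hM
  have hxy : IsConj x y := isConj_iff.2 ⟨g, hg⟩
  obtain ⟨m, hm⟩ := IsPGroup.iff_orderOf.1 P.2 ⟨x, hx⟩
  obtain ⟨m', hm'⟩ := IsPGroup.iff_orderOf.1 P.2 ⟨y, hy⟩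
  rw [Subgroup.orderOf_mk] at hm hm'
  have e1 : orderOf y = orderOf x := by
    rw [← hg]
    exact orderOf_injective (MulAut.conj g).toMonoidHom (MulAut.conj g).injective x
  have e2 : m' = m := by
    rw [hm, hm'] at e1
    exact Nat.pow_right_injective (le_refl 2) e1
  subst e2
  rcases Nat.lt_or_ge m' 2 with h1 | h1
  · have h2 : 2 ^ m' ∣ 2 := by
      have : 2 ^ m' ∣ 2 ^ 1 := Nat.pow_dvd_pow 2 (by omega)
      simpa using this
    refine ⟨x, hx, hxM, y, hy, hyM, ?_, ?_, hxy⟩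
    · rw [← sq]; exact orderOf_dvd_iff_pow_eq_one.1 (hm ▸ h2)
    · rw [← sq]; exact orderOf_dvd_iff_pow_eq_one.1 (hm' ▸ h2)
  · exfalso
    have h2 := h.pow_eq (hP hx) h1 hm
    have h3 := h.pow_eq (hP hy) h1 hm'
    have h4 : g * t * g⁻¹ = t := by
      nth_rewrite 1 [← h2]
      rw [← conj_pow, hg, h3]
    apply hyM
    rw [← hg]
    apply hMn g _ x hxM
    rw [mem_centralizer_singleton_iff]
    calc g * t = (g * t * g⁻¹) * g := by group
      _ = t * g := by rw [h4]

/-- `L ∪ sL` as a subgroup. -/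
def ext2 (L : Subgroup X) (s : X) (hs : s * s = 1) (hn : ∀ x ∈ L, s * x * s⁻¹ ∈ L) : Subgroup X where
  carrier := {g | g ∈ L ∨ s * g ∈ L}
  one_mem' := Or.inl L.one_mem
  mul_mem' := by
    have hs' : s⁻¹ = s := inv_eq_of_mul_eq_one_right hs
    rintro a b (ha | ha) (hb | hb)
    · exact Or.inl (L.mul_mem ha hb)
    · right
      have h1 : s * (a * b) = (s * a * s⁻¹) * (s * b) := by group
      rw [h1]
      exact L.mul_mem (hn a ha) hb
    · right
      rw [← mul_assoc]
      exact L.mul_mem ha hb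
    · left
      have h1 : a * b = (s * (s * a) * s⁻¹) * (s * b) := by
        calc a * b = 1 * a * b := by group
          _ = (s * s) * a * b := by rw [hs]
          _ = _ := by group
      rw [h1]
      exact L.mul_mem (hn _ ha) hb
  inv_mem' := by
    have hs' : s⁻¹ = s := inv_eq_of_mul_eq_one_right hs
    rintro a (ha | ha)
    · exact Or.inl (L.inv_mem ha)
    · right
      have h1 : s * a⁻¹ = (s * (s * a) * s⁻¹)⁻¹ := by
        calc s * a⁻¹ = s * a⁻¹ * 1 := by group
          _ = s * a⁻¹ * (s * s) := by rw [hs]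
          _ = s * a⁻¹ * s⁻¹ * s⁻¹ := by rw [hs']; group
          _ = _ := by group
      rw [h1]
      exact L.inv_mem (hn _ ha)

theorem mem_ext2 {L : Subgroup X} {s : X} (hs : s * s = 1) (hn : ∀ x ∈ L, s * x * s⁻¹ ∈ L) {g : X} :
    g ∈ ext2 L s hs hn ↔ g ∈ L ∨ s * g ∈ L := Iff.rfl

theorem Cyc.mem_or (h : Cyc t K) {s : X} (hs : s ∈ centralizer ({t} : Set X)) (hsK : s ∉ K)
    {b : X} (hb : b ∈ centralizer ({t} : Set X)) : b ∈ K ∨ s * b ∈ K := by
  rcases (Nat.dvd_prime Nat.prime_two).1 h.idx with h2 | h2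
  · exact absurd (relIndex_eq_one.1 h2 hs) hsK
  · by_contra hcon
    push Not at hcon
    have h3 := Subgroup.mul_mem_iff_of_index_two (H := K.subgroupOf (centralizer ({t} : Set X))) h2
      (a := ⟨s, hs⟩) (b := ⟨b, hb⟩)
    rw [mem_subgroupOf, mem_subgroupOf, mem_subgroupOf] at h3
    exact hcon.2 (h3.2 ⟨fun h4 => absurd h4 hsK, fun h4 => absurd h4 hcon.1⟩)

/-- the subgroup of squares of the cyclic group generated by `k₀` -/
theorem sq_xor {k₀ : X} (heven : 2 ∣ orderOf k₀) {x : X} (hx : x ∈ zpowers k₀) :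
    Xor' (x * k₀ ∈ zpowers (k₀ ^ 2)) (x ∈ zpowers (k₀ ^ 2)) := by
  have key : ∀ n : ℤ, k₀ ^ n ∈ zpowers (k₀ ^ 2) ↔ Even n := by
    intro n
    rw [mem_zpowers_iff]
    constructor
    · rintro ⟨m, hm⟩
      rw [← zpow_natCast, ← zpow_mul, zpow_eq_zpow_iff_modEq] at hm
      have h1 : ((2 : ℕ) : ℤ) ∣ n - ((2 : ℕ) : ℤ) * m := by
        have h2 := (Int.modEq_iff_dvd.1 hm)
        exact (Int.natCast_dvd_natCast.2 heven).trans h2
      rw [even_iff_two_dvd]
      have h3 := dvd_add h1 (dvd_mul_right ((2 : ℕ) : ℤ) m)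
      simpa using h3
    · rintro ⟨m, hm⟩
      refine ⟨m, ?_⟩
      rw [← zpow_natCast, ← zpow_mul, hm]
      congr 1
      push_cast
      ring
  obtain ⟨n, rfl⟩ := mem_zpowers_iff.1 hx
  rw [← zpow_add_one, key, key]
  rcases Int.even_or_odd n with h1 | h1
  · right
    refine ⟨h1, fun h2 => ?_⟩
    exact (Int.not_even_iff_odd.2 h1.add_one) h2
  · left
    exact ⟨h1.add_one, Int.not_even_iff_odd.2 h1⟩

end H2.Rec
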