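import Cfsg.Agent.Lib.H2.Rec.Fus

set_option autoImplicit false

/-! Fusion of involutions, continued: all involutions are conjugate and the Sylow 2-subgroup
is dihedral. -/

namespace H2.Rec

open Subgroup Cfsg

variable {X : Type*} [Group X] [Finite X] {t : X} {K : Subgroup X}

/-- index two subgroups of `C` restrict to index two subgroups of any `P ≤ C` not contained in it -/
theorem relIndex_two {M C P : Subgroup X} (hM : M.relIndex C = 2) (hP : P ≤ C) (hPM : ¬ P ≤ M) :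
    M.relIndex P = 2 := by
  have h1 : M.relIndex P ≤ M.relIndex C := relIndex_le_of_le_right hP (by rw [hM]; norm_num)
  have h2 : M.relIndex P ≠ 1 := fun h => hPM (relIndex_eq_one.1 h)
  have h3 : M.relIndex P ≠ 0 := index_ne_zero_of_finite
  omega

theorem not_le_of_index {M C P : Subgroup X} (hMC : M ≤ C) (hM : M.relIndex C = 2) (hP : ¬ 2 ∣ P.index) :
    ¬ P ≤ M := by
  intro h
  apply hP
  have h1 : M.index ∣ P.index := index_dvd_of_le h
  have h2 : M.relIndex C ∣ M.index := by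
    rw [← relIndex_mul_index hMC]; exact dvd_mul_right _ _
  rw [hM] at h2
  exact h2.trans h1

theorem relIndex_of_xor {M C : Subgroup X} {a : X} (ha : a ∈ C)
    (h : ∀ b ∈ C, Xor' (b * a ∈ M) (b ∈ M)) : M.relIndex C = 2 := by
  rw [relIndex, Subgroup.index_eq_two_iff]
  refine ⟨⟨a, ha⟩, fun b => ?_⟩
  exact h b.1 b.2

theorem Cyc.conj_mem (h : Cyc t K) {M : Subgroup X} (hMC : M ≤ centralizer ({t} : Set X))
    (hM : M.relIndex (centralizer ({t} : Set X)) = 2) {g : X} (hg : g ∈ centralizer ({t} : Set X))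
    {x : X} (hx : x ∈ M) : g * x * g⁻¹ ∈ M := by
  have h1 : (M.subgroupOf (centralizer ({t} : Set X))).Normal := Subgroup.normal_of_index_eq_two hM
  exact h1.conj_mem ⟨x, hMC hx⟩ hx ⟨g, hg⟩

theorem Cyc.even (h : Cyc t K) {k₀ : X} (hk : K = zpowers k₀) : 2 ∣ orderOf k₀ := by
  have h1 : orderOf t = 2 := orderOf_eq_prime (by rw [sq]; exact h.tt) h.t1
  rw [← h1]
  have h2 := h.tK
  rw [hk] at h2
  exact orderOf_dvd_of_mem_zpowers h2

theorem Cyc.exists_s (h : Cyc t K) (P : Sylow 2 X) (hP : (P : Subgroup X) ≤ centralizer ({t} : Set X)) :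
    ∃ s ∈ (P : Subgroup X), s ∉ K ∧ s * s = 1 ∧ IsConj t s := by
  obtain ⟨k₀, hk₀⟩ := (Subgroup.isCyclic_iff_exists_zpowers_eq_top K).1 h.cyc
  have hL : ∀ g ∈ centralizer ({t} : Set X), ∀ x ∈ zpowers (k₀ ^ 2), g * x * g⁻¹ ∈ zpowers (k₀ ^ 2) := by
    intro g hg x hx
    obtain ⟨n, rfl⟩ := mem_zpowers_iff.1 hx
    have h1 := h.norm hg (x := k₀) (by rw [← hk₀]; exact mem_zpowers k₀)
    rw [← hk₀] at h1
    obtain ⟨j, hj⟩ := mem_zpowers_iff.1 h1
    have h2 : g * (k₀ ^ 2) ^ n * g⁻¹ = (k₀ ^ 2) ^ (j * n) := by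
      rw [← conj_zpow, ← conj_pow, ← hj, zpow_mul]
      congr 1
      rw [← zpow_natCast, ← zpow_natCast, ← zpow_mul, ← zpow_mul, mul_comm]
    rw [h2]
    exact zpow_mem (mem_zpowers _) _
  have hLK : zpowers (k₀ ^ 2) ≤ K := by
    rw [← hk₀, zpowers_le]
    exact pow_mem (mem_zpowers _) 2
  have hLi : (zpowers (k₀ ^ 2)).relIndex K = 2 := by
    apply relIndex_of_xor (a := k₀)
    · rw [← hk₀]; exact mem_zpowers _
    · intro b hb
      rw [← hk₀] at hb
      exact sq_xor (h.even hk₀.symm) hb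
  have hPK : ¬ (P : Subgroup X) ≤ K := by
    intro hle
    have h2 : (zpowers (k₀ ^ 2)).relIndex (P : Subgroup X) = 2 :=
      relIndex_two hLi hle (not_le_of_index hLK hLi P.not_dvd_index)
    obtain ⟨x, hx, hxL, y, hy, hyL, hxx, hyy, hc⟩ := h.split P hP _ hL h2
    have hy1 : y ≠ 1 := fun e => hyL (e ▸ one_mem _)
    have hx1 : x ≠ 1 := by
      rintro rfl
      rw [isConj_one_right] at hc
      exact hy1 hc
    have e1 := unique_inv h.cyc h.tK (hle hx) h.tt hxx h.t1 hx1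
    have e2 := unique_inv h.cyc h.tK (hle hy) h.tt hyy h.t1 hy1
    exact hyL (e2 ▸ e1 ▸ hxL)
  have hKi : K.relIndex (centralizer ({t} : Set X)) = 2 := by
    rcases (Nat.dvd_prime Nat.prime_two).1 h.idx with h2 | h2
    · exact absurd (hP.trans (relIndex_eq_one.1 h2)) hPK
    · exact h2
  obtain ⟨x, hx, hxK, y, hy, hyK, hxx, hyy, hc⟩ := h.split P hP K (fun g hg x hx => h.norm hg hx)
    (relIndex_two hKi hP hPK)
  have hy1 : y ≠ 1 := fun e => hyK (e ▸ one_mem _)
  have hx1 : x ≠ 1 := by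
    rintro rfl
    rw [isConj_one_right] at hc
    exact hy1 hc
  have e1 := unique_inv h.cyc h.tK hxK h.tt hxx h.t1 hx1
  exact ⟨y, hy, hyK, hyy, e1 ▸ hc⟩

/-- the subgroup `K²⟨s⟩` -/
theorem Cyc.ext_index (h : Cyc t K) {k₀ : X} (hk₀ : zpowers k₀ = K) {s : X}
    (hs : s ∈ centralizer ({t} : Set X)) (hsK : s ∉ K) (hss : s * s = 1)
    (hn : ∀ x ∈ zpowers (k₀ ^ 2), s * x * s⁻¹ ∈ zpowers (k₀ ^ 2)) :
    ext2 (zpowers (k₀ ^ 2)) s hss hn ≤ centralizer ({t} : Set X) ∧
    (ext2 (zpowers (k₀ ^ 2)) s hss hn).relIndex (centralizer ({t} : Set X)) = 2 := by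
  have hk0K : k₀ ∈ K := by rw [← hk₀]; exact mem_zpowers _
  have hLK : zpowers (k₀ ^ 2) ≤ K := by
    rw [← hk₀, zpowers_le]
    exact pow_mem (mem_zpowers _) 2
  constructor
  · intro g hg
    rcases hg with hg | hg
    · exact h.KH (hLK hg)
    · have h1 := h.KH (hLK hg)
      exact ((centralizer ({t} : Set X)).mul_mem_cancel_left hs).1 h1
  · apply relIndex_of_xor (a := k₀) (h.KH hk0K)
    intro b hb
    rw [mem_ext2, mem_ext2]
    rcases h.mem_or hs hsK hb with h1 | h1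
    · have h2 : s * b ∉ zpowers (k₀ ^ 2) := by
        intro h3
        exact hsK ((K.mul_mem_cancel_right h1).1 (hLK h3))
      have h4 : s * (b * k₀) ∉ zpowers (k₀ ^ 2) := by
        intro h3
        exact hsK ((K.mul_mem_cancel_right (K.mul_mem h1 hk0K)).1 (hLK h3))
      have h5 := sq_xor (h.even hk₀.symm) (x := b) (by rw [hk₀]; exact h1)
      rcases h5 with h5 | h5
      · exact Or.inl ⟨Or.inl h5.1, by rintro (h6 | h6); exacts [h5.2 h6, h2 h6]⟩
      · exact Or.inr ⟨Or.inl h5.1, by rintro (h6 | h6); exacts [h5.2 h6, h4 h6]⟩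
    · have hbK : b ∉ K := by
        intro h2
        exact hsK ((K.mul_mem_cancel_right h2).1 h1)
      have h2 : b ∉ zpowers (k₀ ^ 2) := fun h3 => hbK (hLK h3)
      have h4 : b * k₀ ∉ zpowers (k₀ ^ 2) := fun h3 => hbK ((K.mul_mem_cancel_right hk0K).1 (hLK h3))
      have h5 := sq_xor (h.even hk₀.symm) (x := s * b) (by rw [hk₀]; exact h1)
      rw [mul_assoc] at h5
      rcases h5 with h5 | h5
      · exact Or.inl ⟨Or.inr h5.1, by rintro (h6 | h6); exacts [h2 h6, h5.2 h6]⟩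
      · exact Or.inr ⟨Or.inr h5.1, by rintro (h6 | h6); exacts [h4 h6, h5.2 h6]⟩

/-- an element which is a square in the cyclic group `K` and of 2-power order is the square of an
element inverted by `s`, if `s` inverts a nonsquare -/
theorem sqrt_inverted {k₀ s k x : X} (hk : k ∈ zpowers k₀) (hkn : k ∉ zpowers (k₀ ^ 2))
    (hinv : s * k * s⁻¹ = k⁻¹) (hx : x ∈ zpowers (k₀ ^ 2)) {m : ℕ} (ho : orderOf x = 2 ^ m) :
    ∃ c ∈ zpowers k, c * c = x ∧ s * c * s⁻¹ = c⁻¹ := by
  obtain ⟨n, rfl⟩ := mem_zpowers_iff.1 hk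
  obtain ⟨i, rfl⟩ := mem_zpowers_iff.1 hx
  have hn : Odd n := by
    rw [← Int.not_even_iff_odd]
    rintro ⟨j, hj⟩
    apply hkn
    rw [mem_zpowers_iff]
    refine ⟨j, ?_⟩
    rw [← zpow_natCast, ← zpow_mul, hj]
    congr 1
    push_cast
    ring
  have hcop : IsCoprime n (2 ^ m : ℤ) := by
    apply IsCoprime.pow_right
    obtain ⟨j, hj⟩ := hn
    exact ⟨1, -j, by rw [hj]; ring⟩
  obtain ⟨u, v, huv⟩ := hcop
  refine ⟨(k₀ ^ n) ^ (i * u), zpow_mem (mem_zpowers _) _, ?_, ?_⟩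
  · have h1 : ((k₀ ^ 2) ^ i) ^ (u * n + v * 2 ^ m) = (k₀ ^ 2) ^ i := by rw [huv, zpow_one]
    have h2 : ((k₀ ^ 2) ^ i) ^ (v * 2 ^ m) = 1 := by
      rw [mul_comm, zpow_mul]
      have h3 : ((k₀ ^ 2) ^ i) ^ ((2 : ℤ) ^ m) = 1 := by
        have h4 : ((2 : ℤ) ^ m) = ((2 ^ m : ℕ) : ℤ) := by push_cast; rfl
        rw [h4, zpow_natCast, ← ho, pow_orderOf_eq_one]
      rw [h3, one_zpow]
    rw [zpow_add, h2, mul_one] at h1
    rw [← zpow_add, ← zpow_mul]
    rw [← h1, ← zpow_natCast, ← zpow_mul, ← zpow_mul]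
    congr 1
    push_cast
    ring
  · rw [← conj_zpow, hinv, inv_zpow]

theorem mem_of_nonsquare {k₀ k x : X} (hk : k ∈ zpowers k₀) (hkn : k ∉ zpowers (k₀ ^ 2))
    (hx : x ∈ zpowers k₀) {m : ℕ} (ho : orderOf x = 2 ^ m) : x ∈ zpowers k := by
  obtain ⟨n, rfl⟩ := mem_zpowers_iff.1 hk
  obtain ⟨i, rfl⟩ := mem_zpowers_iff.1 hx
  have hn : Odd n := by
    rw [← Int.not_even_iff_odd]
    rintro ⟨j, hj⟩
    apply hkn
    rw [mem_zpowers_iff]
    refine ⟨j, ?_⟩
    rw [← zpow_natCast, ← zpow_mul, hj]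
    congr 1
    push_cast
    ring
  have hcop : IsCoprime n (2 ^ m : ℤ) := by
    apply IsCoprime.pow_right
    obtain ⟨j, hj⟩ := hn
    exact ⟨1, -j, by rw [hj]; ring⟩
  obtain ⟨u, v, huv⟩ := hcop
  rw [mem_zpowers_iff]
  refine ⟨i * u, ?_⟩
  have h1 : (k₀ ^ i) ^ (u * n + v * 2 ^ m) = k₀ ^ i := by rw [huv, zpow_one]
  have h2 : (k₀ ^ i) ^ (v * 2 ^ m) = 1 := by
    rw [mul_comm, zpow_mul]
    have h3 : (k₀ ^ i) ^ ((2 : ℤ) ^ m) = 1 := by
      have h4 : ((2 : ℤ) ^ m) = ((2 ^ m : ℕ) : ℤ) := by push_cast; rfl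
      rw [h4, zpow_natCast, ← ho, pow_orderOf_eq_one]
    rw [h3, one_zpow]
  rw [zpow_add, h2, mul_one] at h1
  rw [← h1, ← zpow_mul, ← zpow_mul]
  congr 1
  ring

theorem inverted_of {k₀ s k x : X} (hk : k ∈ zpowers k₀) (hkn : k ∉ zpowers (k₀ ^ 2))
    (hinv : s * k * s⁻¹ = k⁻¹) (hx : x ∈ zpowers k₀) {m : ℕ} (ho : orderOf x = 2 ^ m) :
    s * x * s⁻¹ = x⁻¹ := by
  obtain ⟨j, rfl⟩ := mem_zpowers_iff.1 (mem_of_nonsquare hk hkn hx ho)
  rw [← conj_zpow, hinv, inv_zpow]

/-- involutions in `sL` are conjugate to `s` if `s` inverts a nonsquare -/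
theorem isConj_of_sq {k₀ s k x : X} (hk : k ∈ zpowers k₀) (hkn : k ∉ zpowers (k₀ ^ 2))
    (hinv : s * k * s⁻¹ = k⁻¹) (hx : x ∈ zpowers (k₀ ^ 2)) {m : ℕ} (ho : orderOf x = 2 ^ m) :
    IsConj s (s * x) := by
  obtain ⟨c, -, hc1, hc2⟩ := sqrt_inverted hk hkn hinv hx ho
  rw [isConj_iff]
  refine ⟨c⁻¹, ?_⟩
  have h1 : s * c = c⁻¹ * s := by rw [← hc2]; group
  rw [← hc1, inv_inv, ← h1, mul_assoc]

theorem Cyc.t_mem (h : Cyc t K) (P : Sylow 2 X) (hP : (P : Subgroup X) ≤ centralizer ({t} : Set X)) :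
    t ∈ (P : Subgroup X) := by
  have hp : Fact (Nat.Prime 2) := ⟨Nat.prime_two⟩
  have h1 : IsPGroup 2 (zpowers t) := by
    apply IsPGroup.of_card (n := 1)
    rw [Nat.card_zpowers, pow_one]
    exact orderOf_eq_prime (by rw [sq]; exact h.tt) h.t1
  have h2 : (P : Subgroup X) ≤ normalizer (zpowers t : Set X) := by
    intro g hg
    have h3 := mem_centralizer_singleton_iff.1 (hP hg)
    rw [mem_normalizer_iff]
    intro x
    constructor
    · intro hx
      obtain ⟨n, rfl⟩ := mem_zpowers_iff.1 hx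
      have h4 : g * t ^ n * g⁻¹ = t ^ n := by
        rw [← conj_zpow]
        congr 1
        rw [h3]; group
      rw [h4]
      exact zpow_mem (mem_zpowers _) _
    · intro hx
      obtain ⟨n, hn⟩ := mem_zpowers_iff.1 hx
      have h4 : x = t ^ n := by
        have h5 : g * t ^ n * g⁻¹ = t ^ n := by
          rw [← conj_zpow]
          congr 1
          rw [h3]; group
        have h6 : g * x * g⁻¹ = g * t ^ n * g⁻¹ := by rw [h5]; exact hn.symm
        exact mul_left_cancel (mul_right_cancel h6)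
      rw [h4]
      exact zpow_mem (mem_zpowers _) _
  have h3 : IsPGroup 2 ((P : Subgroup X) ⊔ zpowers t : Subgroup X) :=
    IsPGroup.to_sup_of_normal_right' P.2 h1 h2
  have h4 := P.3 h3 le_sup_left
  have h5 : t ∈ ((P : Subgroup X) ⊔ zpowers t : Subgroup X) := mem_sup_right (mem_zpowers t)
  rwa [h4] at h5

theorem isPowTwo (P : Sylow 2 X) {x : X} (hx : x ∈ (P : Subgroup X)) : ∃ m : ℕ, orderOf x = 2 ^ m := by
  have hp : Fact (Nat.Prime 2) := ⟨Nat.prime_two⟩
  obtain ⟨m, hm⟩ := IsPGroup.iff_orderOf.1 P.2 ⟨x, hx⟩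
  rw [Subgroup.orderOf_mk] at hm
  exact ⟨m, hm⟩

/-- **the fusion lemma**: all involutions are conjugate and 2-elements of `K` are inverted by `s`. -/
theorem Cyc.fusion (h : Cyc t K) : ∃ s ∈ centralizer ({t} : Set X), s ∉ K ∧ s * s = 1 ∧ s ≠ 1 ∧
    (∀ x ∈ K, (∃ m : ℕ, orderOf x = 2 ^ m) → s * x * s⁻¹ = x⁻¹) ∧
    (∀ z : X, z * z = 1 → z ≠ 1 → IsConj t z) := by
  classical
  have hp : Fact (Nat.Prime 2) := ⟨Nat.prime_two⟩
  obtain ⟨P, hP⟩ := h.exists_sylow
  obtain ⟨s, hsP, hsK, hss, hts⟩ := h.exists_s P hP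
  have htP := h.t_mem P hP
  have hs1 : s ≠ 1 := fun e => hsK (e ▸ one_mem _)
  have hsC := hP hsP
  have hst : s * t = t * s := mem_centralizer_singleton_iff.1 hsC
  have hsinv : s⁻¹ = s := inv_eq_of_mul_eq_one_right hss
  obtain ⟨k₀, hk₀⟩ := (Subgroup.isCyclic_iff_exists_zpowers_eq_top K).1 h.cyc
  have hk0K : k₀ ∈ K := by rw [← hk₀]; exact mem_zpowers _
  have hLK : zpowers (k₀ ^ 2) ≤ K := by
    rw [← hk₀, zpowers_le]
    exact pow_mem (mem_zpowers _) 2
  have hL : ∀ g ∈ centralizer ({t} : Set X), ∀ x ∈ zpowers (k₀ ^ 2), g * x * g⁻¹ ∈ zpowers (k₀ ^ 2) := by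
    intro g hg x hx
    obtain ⟨n, rfl⟩ := mem_zpowers_iff.1 hx
    have h1 := h.norm hg (x := k₀) (by rw [← hk₀]; exact mem_zpowers k₀)
    rw [← hk₀] at h1
    obtain ⟨j, hj⟩ := mem_zpowers_iff.1 h1
    have h2 : g * (k₀ ^ 2) ^ n * g⁻¹ = (k₀ ^ 2) ^ (j * n) := by
      rw [← conj_zpow, ← conj_pow, ← hj, zpow_mul]
      congr 1
      rw [← zpow_natCast, ← zpow_natCast, ← zpow_mul, ← zpow_mul, mul_comm]
    rw [h2]
    exact zpow_mem (mem_zpowers _) _
  have heven := h.even hk₀.symm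
  -- products of two non-squares
  have hmul : ∀ {x y : X}, x ∈ K → y ∈ K → x ∉ zpowers (k₀ ^ 2) → y ∉ zpowers (k₀ ^ 2) →
      x⁻¹ * y ∈ zpowers (k₀ ^ 2) := by
    intro x y hx hy hxn hyn
    have h1 := sq_xor heven (x := x) (by rw [hk₀]; exact hx)
    have h2 := sq_xor heven (x := y) (by rw [hk₀]; exact hy)
    have h3 : x * k₀ ∈ zpowers (k₀ ^ 2) := by
      rcases h1 with h1 | h1
      · exact h1.1
      · exact absurd h1.1 hxn
    have h4 : y * k₀ ∈ zpowers (k₀ ^ 2) := by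
      rcases h2 with h2 | h2
      · exact h2.1
      · exact absurd h2.1 hyn
    have h5 := mul_mem (inv_mem h3) h4
    have hcomm : ∀ a ∈ K, ∀ b ∈ K, a * b = b * a := by
      intro a ha b hb
      rw [← hk₀] at ha hb
      obtain ⟨i, rfl⟩ := mem_zpowers_iff.1 ha
      obtain ⟨j, rfl⟩ := mem_zpowers_iff.1 hb
      rw [← zpow_add, ← zpow_add, add_comm]
    have h6 : (x * k₀)⁻¹ * (y * k₀) = x⁻¹ * y := by
      rw [hcomm x hx k₀ hk0K, hcomm y hy k₀ hk0K]; group
    rwa [h6] at h5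
  obtain ⟨hM2C, hM2i⟩ := h.ext_index hk₀ hsC hsK hss (hL s hsC)
  obtain ⟨x, hx, hxM, y, hy, hyM, hxx, hyy, hc⟩ := h.split P hP (ext2 (zpowers (k₀ ^ 2)) s hss (hL s hsC))
    (fun g hg x hx => h.conj_mem hM2C hM2i hg hx) (relIndex_two hM2i hP (not_le_of_index hM2C hM2i P.not_dvd_index))
  rw [mem_ext2] at hxM hyM
  have hy1 : y ≠ 1 := fun e => hyM (Or.inl (e ▸ one_mem _))
  have hx1 : x ≠ 1 := by
    rintro rfl
    rw [isConj_one_right] at hc
    exact hy1 hc
  -- every involution is conjugate to one in `P`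
  have hred : (∀ z ∈ (P : Subgroup X), z * z = 1 → z ≠ 1 → IsConj t z) →
      ∀ z : X, z * z = 1 → z ≠ 1 → IsConj t z := by
    intro hz z hzz hz1
    have h1 : IsPGroup 2 (zpowers z) := by
      apply IsPGroup.of_card (n := 1)
      rw [Nat.card_zpowers, pow_one]
      exact orderOf_eq_prime (by rw [sq]; exact hzz) hz1
    obtain ⟨Q, hQ⟩ := h1.exists_le_sylow
    obtain ⟨g, hg⟩ := MulAction.exists_smul_eq X Q P
    have h2 : g * z * g⁻¹ ∈ (P : Subgroup X) := by
      rw [← hg, Sylow.coe_subgroup_smul]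
      exact smul_mem_pointwise_smul z (MulAut.conj g) _ (hQ (mem_zpowers z))
    refine (hz _ h2 ?_ ?_).trans (isConj_iff.2 ⟨g⁻¹, by group⟩)
    · calc g * z * g⁻¹ * (g * z * g⁻¹) = g * (z * z) * g⁻¹ := by group
        _ = 1 := by rw [hzz]; group
    · intro h3
      apply hz1
      have : z = g⁻¹ * (g * z * g⁻¹) * g := by group
      rw [this, h3]; group
  by_cases htL : t ∈ zpowers (k₀ ^ 2)
  · -- the Sylow 2-subgroup has order at least eight
    have hyK : y ∉ K := by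
      intro h1
      have := unique_inv h.cyc h.tK h1 h.tt hyy h.t1 hy1
      exact hyM (Or.inl (this ▸ htL))
    have hsy : s * y ∈ K := (h.mem_or hsC hsK (hP hy)).resolve_left hyK
    have hsyn : s * y ∉ zpowers (k₀ ^ 2) := fun h1 => hyM (Or.inr h1)
    have hinv : s * (s * y) * s⁻¹ = (s * y)⁻¹ := by
      rw [mul_inv_rev, ← mul_assoc, hss, one_mul, inv_eq_of_mul_eq_one_right hyy]
    have hsyk : s * y ∈ zpowers k₀ := by rw [hk₀]; exact hsy
    have hinvK : ∀ x ∈ K, (∃ m : ℕ, orderOf x = 2 ^ m) → s * x * s⁻¹ = x⁻¹ := by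
      rintro x hx ⟨m, hm⟩
      rw [← hk₀] at hx
      exact inverted_of hsyk hsyn hinv hx hm
    have hsub : ∀ z ∈ (P : Subgroup X), z * z = 1 → s * z ∈ zpowers (k₀ ^ 2) → IsConj t z := by
      intro z hzP hzz hz
      obtain ⟨m, hm⟩ := isPowTwo P (mul_mem hsP hzP)
      have h1 := isConj_of_sq hsyk hsyn hinv hz hm
      rw [← mul_assoc, hss, one_mul] at h1
      exact hts.trans h1
    refine ⟨s, hsC, hsK, hss, hs1, hinvK, hred ?_⟩
    intro z hzP hzz hz1
    by_cases hzK : z ∈ K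
    · rw [unique_inv h.cyc h.tK hzK h.tt hzz h.t1 hz1]
    have hsz : s * z ∈ K := (h.mem_or hsC hsK (hP hzP)).resolve_left hzK
    by_cases hszL : s * z ∈ zpowers (k₀ ^ 2)
    · exact hsub z hzP hzz hszL
    · -- `z = y * d` with `d` a square
      have h1 := hmul hsy hsz hsyn hszL
      have e1 : (s * y)⁻¹ * (s * z) = y⁻¹ * z := by group
      rw [e1] at h1
      obtain ⟨m, hm⟩ := isPowTwo P (mul_mem (inv_mem hy) hzP)
      have hinvy : y * (s * y) * y⁻¹ = (s * y)⁻¹ := by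
        rw [mul_inv_rev, inv_eq_of_mul_eq_one_right hyy, hsinv]
        calc y * (s * y) * y = y * s * (y * y) := by group
          _ = y * s := by rw [hyy, mul_one]
      have h2 := isConj_of_sq hsyk hsyn hinvy h1 hm
      have e2 : y * (y⁻¹ * z) = z := by group
      rw [e2] at h2
      refine IsConj.trans ?_ h2
      refine IsConj.trans ?_ hc
      rcases hxM with h3 | h3
      · rw [unique_inv h.cyc h.tK (hLK h3) h.tt hxx h.t1 hx1]
      · exact hsub x hx hxx h3
  · -- the Sylow 2-subgroup is a four-group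
    have hpow : ∀ x ∈ K, (∃ m : ℕ, orderOf x = 2 ^ m) → x = 1 ∨ x = t := by
      rintro x hx ⟨m, hm⟩
      rcases Nat.lt_or_ge m 2 with h1 | h1
      · by_cases hx1 : x = 1
        · exact Or.inl hx1
        · right
          refine unique_inv h.cyc h.tK hx h.tt ?_ h.t1 hx1
          rw [← sq]
          apply orderOf_dvd_iff_pow_eq_one.1
          rw [hm]
          have : 2 ^ m ∣ 2 ^ 1 := Nat.pow_dvd_pow 2 (by omega)
          simpa using this
      · exfalso
        apply htL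
        have h2 := h.pow_eq (h.KH hx) h1 hm
        obtain ⟨j, rfl⟩ := Nat.exists_eq_add_of_le h1
        have e1 : 2 + j - 1 = j + 1 := by omega
        rw [e1] at h2
        rw [← hk₀] at hx
        obtain ⟨i, rfl⟩ := mem_zpowers_iff.1 hx
        rw [← h2, mem_zpowers_iff]
        refine ⟨i * 2 ^ j, ?_⟩
        rw [← zpow_natCast, ← zpow_natCast, ← zpow_mul, ← zpow_mul]
        congr 1
        push_cast
        ring
    have hinvK : ∀ x ∈ K, (∃ m : ℕ, orderOf x = 2 ^ m) → s * x * s⁻¹ = x⁻¹ := by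
      intro x hx hm
      rcases hpow x hx hm with rfl | rfl
      · group
      · rw [hst, inv_eq_of_mul_eq_one_right h.tt]; group
    refine ⟨s, hsC, hsK, hss, hs1, hinvK, hred ?_⟩
    have hcases : ∀ z ∈ (P : Subgroup X), z ∉ K → z = s ∨ z = s * t := by
      intro z hzP hzK
      have hsz : s * z ∈ K := (h.mem_or hsC hsK (hP hzP)).resolve_left hzK
      rcases hpow _ hsz (isPowTwo P (mul_mem hsP hzP)) with h1 | h1
      · left
        calc z = s * (s * z) := by rw [← mul_assoc, hss, one_mul]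
          _ = s := by rw [h1, mul_one]
      · right
        calc z = s * (s * z) := by rw [← mul_assoc, hss, one_mul]
          _ = s * t := by rw [h1]
    have hst1 : s * t ∉ K := fun h1 => hsK ((K.mul_mem_cancel_right h.tK).1 h1)
    have hst2 : (s * t) * (s * t) = 1 := by
      calc (s * t) * (s * t) = (s * t) * (t * s) := by rw [hst]
        _ = s * (t * t) * s := by group
        _ = 1 := by rw [h.tt, mul_one, hss]
    have hstC : s * t ∈ centralizer ({t} : Set X) := mul_mem hsC (h.KH h.tK)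
    have hmain : IsConj t (s * t) := by
      obtain ⟨hM3C, hM3i⟩ := h.ext_index hk₀ hstC hst1 hst2 (hL _ hstC)
      obtain ⟨x, hx, hxM, y, hy, hyM, hxx, hyy, hc⟩ := h.split P hP
        (ext2 (zpowers (k₀ ^ 2)) (s * t) hst2 (hL _ hstC))
        (fun g hg x hx => h.conj_mem hM3C hM3i hg hx)
        (relIndex_two hM3i hP (not_le_of_index hM3C hM3i P.not_dvd_index))
      rw [mem_ext2] at hxM hyM
      have hy1 : y ≠ 1 := fun e => hyM (Or.inl (e ▸ one_mem _))
      have hx1 : x ≠ 1 := by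
        rintro rfl
        rw [isConj_one_right] at hc
        exact hy1 hc
      have hxst : x = s * t := by
        by_cases hxK : x ∈ K
        · exfalso
          have h1 := unique_inv h.cyc h.tK hxK h.tt hxx h.t1 hx1
          subst h1
          rcases hxM with h2 | h2
          · exact htL h2
          · rw [mul_assoc, h.tt, mul_one] at h2
            exact hsK (hLK h2)
        · rcases hcases x hx hxK with h1 | h1
          · exfalso
            subst h1
            rcases hxM with h2 | h2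
            · exact hsK (hLK h2)
            · have h3 : x * t * x = t := by
                rw [hst, mul_assoc, hss, mul_one]
              rw [h3] at h2
              exact htL h2
          · exact h1
      have hyne : y ≠ s * t := by
        rintro rfl
        exact hyM (Or.inr (by rw [hst2]; exact one_mem _))
      rw [hxst] at hc
      by_cases hyK : y ∈ K
      · have h1 := unique_inv h.cyc h.tK hyK h.tt hyy h.t1 hy1
        rw [h1] at hc
        exact hc.symm
      · rcases hcases y hy hyK with h1 | h1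
        · rw [h1] at hc
          exact hts.trans hc.symm
        · exact absurd h1 hyne
    intro z hzP hzz hz1
    by_cases hzK : z ∈ K
    · rw [unique_inv h.cyc h.tK hzK h.tt hzz h.t1 hz1]
    · rcases hcases z hzP hzK with rfl | rfl
      · exact hts
      · exact hmain

end H2.Rec
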